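import Cfsg.Agent.H798.Oc.F4
import Cfsg.Agent.H932.OC.Tw

/-!
# S4857, own characteristic: the exceptional groups (helper798)

* `ocInt_G2` … `ocInt_E8` : `OCInt p (chevX.group K)`;
* `rowForZ_chev` : `RowForZ p (IsExceptionalChevChar p)`, `p` odd;
* `rowForZ_exc` : also the twisted ones.
-/

set_option autoImplicit false

namespace Cfsg.Agent.H798.Oc.RowZ

open Cfsg.Lie Cfsg.Agent.ChevalleyStructure.CoxeterGeomTypes Cfsg.Agent.Nodes.RGDChev Cfsg.Agent.ChevalleyStructure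
open Cfsg.Agent.H798.Oc.Untw Cfsg.Agent.H798.Oc.F4 Cfsg.Agent.H239.OCTab Cfsg.Agent.H932.OC

section Rows

variable (p : ℕ) [Fact p.Prime] (hp2 : p ≠ 2) (K : Type) [Field K] [Finite K] [CharP K p]

include hp2

theorem ocInt_G2 : OCInt p ↥(chevG2.group K) := fun Au hAu =>
  ocint_chev (D := chevG2) (l := 2) (M := CoxeterMatrix.G₂) (by simp [IsType, typeList]) CpAut.RgdUntw.symTwo_G2
    chk_G2 high_G2 move_G2 p hp2 K Au hAu

theorem ocInt_F4 : OCInt p ↥(chevF4.group K) := fun Au hAu => ocint_F4 p hp2 K Au hAu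

theorem ocInt_E6 : OCInt p ↥(chevE6.group K) := fun Au hAu =>
  ocint_chev (D := chevE6) (l := 6) (M := CoxeterMatrix.E₆) (by simp [IsType, typeList]) CpAut.RgdUntw.symTwo_E6
    chk_E6 high_E6 move_E6 p hp2 K Au hAu

theorem ocInt_E7 : OCInt p ↥(chevE7.group K) := fun Au hAu =>
  ocint_chev (D := chevE7) (l := 7) (M := CoxeterMatrix.E₇) (by simp [IsType, typeList]) CpAut.RgdUntw.symTwo_E7
    chk_E7 high_E7 move_E7 p hp2 K Au hAu

theorem ocInt_E8 : OCInt p ↥(chevE8.group K) := fun Au hAu =>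
  ocint_chev (D := chevE8) (l := 8) (M := CoxeterMatrix.E₈) (by simp [IsType, typeList]) CpAut.RgdUntw.symTwo_E8
    chk_E8 high_E8 move_E8 p hp2 K Au hAu

end Rows

open Cfsg

/-- **The own characteristic rows of `G₂(q)`, `F₄(q)`, `E₆(q)`, `E₇(q)`, `E₈(q)` in S4857.** -/
theorem rowForZ_chev {p : ℕ} [Fact p.Prime] (hp2 : p ≠ 2) :
    H145.BR.RowForZ p (fun X _ => Cfsg.IsExceptionalChevChar p X) := by
  intro X _ _ _ hna _ hX
  have hL : Cfsg.IsLieTypeChar p X := by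
    unfold Cfsg.IsLieTypeChar
    tauto
  obtain ⟨K, _, _, _, ⟨-, ⟨e⟩⟩ | ⟨⟨e⟩⟩ | ⟨⟨e⟩⟩ | ⟨⟨e⟩⟩ | ⟨⟨e⟩⟩⟩ := hX
  · exact ((ocInt_G2 p hp2 K).of_equiv e).rowZ hp2 hna hL
  · exact ((ocInt_F4 p hp2 K).of_equiv e).rowZ hp2 hna hL
  · exact ((ocInt_E6 p hp2 K).of_equiv e).rowZ hp2 hna hL
  · exact ((ocInt_E7 p hp2 K).of_equiv e).rowZ hp2 hna hL
  · exact ((ocInt_E8 p hp2 K).of_equiv e).rowZ hp2 hna hL

/-- **All exceptional groups in their own odd characteristic.** -/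
theorem rowForZ_exc {p : ℕ} [Fact p.Prime] (hp2 : p ≠ 2) :
    H145.BR.RowForZ p (fun X _ => Cfsg.IsExceptionalChevChar p X ∨ Cfsg.IsTwistedE6D4Char p X) := by
  intro X _ _ _ hna hd hX
  rcases hX with hX | hX
  · exact rowForZ_chev hp2 X hna hd hX
  · exact rowForZ_tw hp2 X hna hd hX

end Cfsg.Agent.H798.Oc.RowZ
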